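import Cfsg.Agent.Lib.JordanSharp.Basic
import Cfsg.Agent.Lib.Coprime.Abelian

/-! # Four times transitive actions with four-point stabilisers of odd order -/

set_option autoImplicit false

namespace Cfsg.Agent.Lib.FourTrans

open MulAction

variable {G X : Type*} [Group G] [MulAction G X]

/-- Four different points. -/
def Four (a b c d : X) : Prop := a ≠ b ∧ a ≠ c ∧ a ≠ d ∧ b ≠ c ∧ b ≠ d ∧ c ≠ d

/-- The hypothesis of Hall's theorem. -/
structure Hyp (G X : Type*) [Group G] [MulAction G X] : Prop where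
  faith : ∀ g : G, (∀ p : X, g • p = p) → g = 1
  trans : ∀ {a b c d a' b' c' d' : X}, Four a b c d → Four a' b' c' d' →
    ∃ g : G, g • a = a' ∧ g • b = b' ∧ g • c = c' ∧ g • d = d'
  odd : ∀ {t : G}, t * t = 1 → ∀ {a b c d : X}, Four a b c d →
    t • a = a → t • b = b → t • c = c → t • d = d → t = 1

/-- The pointwise stabiliser of four points. -/
def stab4 (G : Type*) {X : Type*} [Group G] [MulAction G X] (a b c d : X) : Subgroup G :=
  stabilizer G a ⊓ stabilizer G b ⊓ stabilizer G c ⊓ stabilizer G d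

theorem mem_stab4 {a b c d : X} {g : G} :
    g ∈ stab4 G a b c d ↔ g • a = a ∧ g • b = b ∧ g • c = c ∧ g • d = d := by
  simp [stab4, Subgroup.mem_inf, and_assoc]

theorem smul_smul_inv {t : G} (ht : t * t = 1) (p : X) : t • t • p = p := by
  rw [← mul_smul, ht, one_smul]

theorem stab4_odd [Finite G] (h : Hyp G X) {a b c d : X} (hf : Four a b c d) :
    Odd (Nat.card (stab4 G a b c d)) := by
  rw [← Nat.not_even_iff_odd, even_iff_two_dvd]
  intro h2
  haveI : Fact (2 : ℕ).Prime := ⟨Nat.prime_two⟩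
  obtain ⟨⟨t, ht⟩, hord⟩ := exists_prime_orderOf_dvd_card' (G := stab4 G a b c d) 2 h2
  rw [Subgroup.orderOf_mk] at hord
  obtain ⟨ha, hb, hc, hd⟩ := mem_stab4.1 ht
  have htt : t * t = 1 := by
    have := pow_orderOf_eq_one t
    rwa [hord, sq] at this
  rw [h.odd htt hf ha hb hc hd, orderOf_one] at hord
  omega

theorem pow_odd_inv {K : Subgroup G} (hK : Odd (Nat.card K)) {g : G} (hg : g ∈ K) :
    ∃ k : ℕ, g ^ (2 * k + 1) = 1 := by
  obtain ⟨k, hk⟩ := hK
  refine ⟨k, ?_⟩
  have : (⟨g, hg⟩ : K) ^ Nat.card K = 1 := pow_card_eq_one'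
  rw [hk] at this
  exact congrArg Subtype.val this

/-- Involutions congruent modulo a subgroup of odd order are conjugate in it. -/
theorem conj_of_mem {K : Subgroup G} (hK : Odd (Nat.card K)) {t u : G} (ht : t * t = 1)
    (hu : u * u = 1) (hg : t * u ∈ K) : ∃ k ∈ K, k * t * k⁻¹ = u := by
  obtain ⟨j, hj⟩ := pow_odd_inv hK hg
  refine ⟨(t * u) ^ j, K.pow_mem hg j, ?_⟩
  have hti : t⁻¹ = t := inv_eq_of_mul_eq_one_right ht
  have hui : u⁻¹ = u := inv_eq_of_mul_eq_one_right hu
  have hginv : (t * u)⁻¹ = t * (t * u) * t⁻¹ := by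
    rw [mul_inv_rev, hti, hui, ← mul_assoc t t u, ht, one_mul]
  have hneg : ((t * u) ^ j)⁻¹ = t * (t * u) ^ j * t⁻¹ := by rw [← inv_pow, hginv, conj_pow]
  rw [hneg, hti]
  calc (t * u) ^ j * t * (t * (t * u) ^ j * t)
      = (t * u) ^ j * (t * t) * (t * u) ^ j * t := by simp only [mul_assoc]
    _ = (t * u) ^ (2 * j) * t := by rw [ht, mul_one, ← pow_add]; ring_nf
    _ = (t * u) ^ (2 * j) * ((t * u) * u) := by rw [mul_assoc t u u, hu, mul_one]
    _ = u := by rw [← mul_assoc, ← pow_succ, hj, one_mul]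

/-- An element carrying one pattern on four points to another can be corrected to carry one
involution to the other. -/
theorem exists_conj [Finite G] (h : Hyp G X) {t u : G} (ht : t * t = 1) (hu : u * u = 1)
    {a b c d : X} (hf : Four a b c d) (g : G) (ha : g • t • a = u • g • a)
    (hb : g • t • b = u • g • b) (hc : g • t • c = u • g • c) (hd : g • t • d = u • g • d) :
    ∃ g' : G, g' * t * g'⁻¹ = u ∧ g' • a = g • a ∧ g' • b = g • b ∧ g' • c = g • c ∧
      g' • d = g • d := by
  have hf' : Four (g • a) (g • b) (g • c) (g • d) := by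
    simpa [Four] using hf
  have htt : (g * t * g⁻¹) * (g * t * g⁻¹) = 1 := by
    calc _ = g * (t * t) * g⁻¹ := by group
      _ = 1 := by rw [ht]; group
  have hmem : g * t * g⁻¹ * u ∈ stab4 G (g • a) (g • b) (g • c) (g • d) := by
    refine mem_stab4.2 ⟨?_, ?_, ?_, ?_⟩
    · rw [mul_smul, ← ha, mul_smul, mul_smul, inv_smul_smul, smul_smul_inv ht]
    · rw [mul_smul, ← hb, mul_smul, mul_smul, inv_smul_smul, smul_smul_inv ht]
    · rw [mul_smul, ← hc, mul_smul, mul_smul, inv_smul_smul, smul_smul_inv ht]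
    · rw [mul_smul, ← hd, mul_smul, mul_smul, inv_smul_smul, smul_smul_inv ht]
  obtain ⟨k, hk, hku⟩ := conj_of_mem (stab4_odd h hf') htt hu hmem
  obtain ⟨k1, k2, k3, k4⟩ := mem_stab4.1 hk
  refine ⟨k * g, ?_, ?_, ?_, ?_, ?_⟩
  · rw [← hku]; group
  all_goals rw [mul_smul]; assumption

/-- Some odd power of an element whose square fixes four points is an involution agreeing with it. -/
theorem exists_lift [Finite G] (h : Hyp G X) {a b c d : X} (hf : Four a b c d) (g : G)
    (ha : g • g • a = a) (hb : g • g • b = b) (hc : g • g • c = c) (hd : g • g • d = d) :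
    ∃ m : ℕ, g ^ (2 * m + 1) * g ^ (2 * m + 1) = 1 ∧ g ^ (2 * m) ∈ stab4 G a b c d := by
  have hmem : g * g ∈ stab4 G a b c d :=
    mem_stab4.2 ⟨by rwa [mul_smul], by rwa [mul_smul], by rwa [mul_smul], by rwa [mul_smul]⟩
  obtain ⟨m, hm⟩ := pow_odd_inv (stab4_odd h hf) hmem
  refine ⟨m, ?_, ?_⟩
  · rw [← (Commute.refl g).mul_pow]; exact hm
  · rw [pow_mul, sq]; exact Subgroup.pow_mem _ hmem m

/-- An involution with a prescribed pattern on four points. -/
theorem exists_pattern [Finite G] (h : Hyp G X) {a b c d a' b' c' d' : X} (hf : Four a b c d)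
    (g : G) (ha : g • a = a') (hb : g • b = b') (hc : g • c = c') (hd : g • d = d')
    (ha2 : g • a' = a) (hb2 : g • b' = b) (hc2 : g • c' = c) (hd2 : g • d' = d) :
    ∃ t : G, t * t = 1 ∧ (∀ z : G, Commute z g → Commute z t) ∧
      (∃ k ∈ stab4 G a b c d, t = g * k) ∧
      t • a = a' ∧ t • b = b' ∧ t • c = c' ∧ t • d = d' := by
  obtain ⟨m, hm, hmem⟩ := exists_lift h hf g (by rw [ha, ha2]) (by rw [hb, hb2]) (by rw [hc, hc2])
    (by rw [hd, hd2])
  obtain ⟨k1, k2, k3, k4⟩ := mem_stab4.1 hmem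
  refine ⟨g ^ (2 * m + 1), hm, fun z hz => hz.pow_right _, ⟨_, hmem, pow_succ' g (2 * m)⟩, ?_⟩
  simp only [pow_succ' g (2 * m), mul_smul, k1, k2, k3, k4]
  exact ⟨ha, hb, hc, hd⟩

/-- An invariant orbit of a group of odd order contains a fixed point of the involution. -/
theorem exists_fix_of_invariant {K : Subgroup G} (hK : Odd (Nat.card K)) {t : G} (ht : t * t = 1)
    (hn : ∀ k ∈ K, t * k * t ∈ K) {c : X} {k : G} (hk : k ∈ K) (hkc : k • c = t • c) :
    ∃ k' ∈ K, t • k' • c = k' • c := by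
  have hgc : (t * k) • c = c := by rw [mul_smul, hkc, smul_smul_inv ht]
  have hgg : t * k * (t * k) ∈ K := by
    rw [← mul_assoc]; exact K.mul_mem (hn k hk) hk
  obtain ⟨m, hm⟩ := pow_odd_inv hK hgg
  set u := (t * k) ^ (2 * m + 1) with hu
  have huu : u * u = 1 := by rw [hu, ← (Commute.refl _).mul_pow]; exact hm
  have huc : u • c = c := by
    have : t * k ∈ stabilizer G c := hgc
    exact (stabilizer G c).pow_mem this _
  have htu : u * t ∈ K := by
    have h1 : u = t * k * ((t * k * (t * k)) ^ m) := by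
      rw [hu, pow_succ', pow_mul, sq]
    rw [h1]
    simpa only [mul_assoc] using hn _ (K.mul_mem hk (K.pow_mem hgg m))
  obtain ⟨k0, hk0, hk0e⟩ := conj_of_mem hK huu ht htu
  refine ⟨k0, hk0, ?_⟩
  rw [← hk0e, mul_smul, mul_smul, inv_smul_smul, huc]

/-- An element of odd order fixing one of three permuted points fixes all of them. -/
theorem fix_other {K : Subgroup G} (hK : Odd (Nat.card K)) {k : G} (hk : k ∈ K) {u v s : X}
    (hu : k • u = u) (hv : k • v = u ∨ k • v = v ∨ k • v = s)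
    (hs : k • s = u ∨ k • s = v ∨ k • s = s) (hvu : v ≠ u) (hsu : s ≠ u) : k • v = v := by
  rcases hv with e | e | e
  · exact absurd (smul_left_cancel k (e.trans hu.symm)) hvu
  · exact e
  · rcases hs with e' | e' | e'
    · exact absurd (smul_left_cancel k (e'.trans hu.symm)) hsu
    · obtain ⟨j, hj⟩ := pow_odd_inv hK hk
      have h2 : k * k ∈ stabilizer G v := by
        rw [mem_stabilizer_iff, mul_smul, e, e']
      have h3 : (k * k) ^ (j + 1) = k := by
        rw [← sq, ← pow_mul, show 2 * (j + 1) = 2 * j + 1 + 1 by ring, pow_succ, hj, one_mul]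
      have := (stabilizer G v).pow_mem h2 (j + 1)
      rwa [h3] at this
    · have := smul_left_cancel k (e.trans e'.symm)
      rw [this] at e ⊢
      exact e

/-- A group of odd order fixes a point fixed by the centralisers of a four-group normalising it. -/
theorem gen_fix [Finite G] {K : Subgroup G} (hK : Odd (Nat.card K)) {x y : G} (hx : x * x = 1)
    (hy : y * y = 1) (hxy : x * y = y * x) (hx1 : x ≠ 1) (hy1 : y ≠ 1) (hne : x ≠ y)
    (hnx : ∀ k ∈ K, x * k * x ∈ K) (hny : ∀ k ∈ K, y * k * y ∈ K) {p : X}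
    (hX : ∀ k ∈ K, k * x = x * k → k • p = p) (hY : ∀ k ∈ K, k * y = y * k → k • p = p)
    (hZ : ∀ k ∈ K, k * (x * y) = x * y * k → k • p = p) : ∀ k ∈ K, k • p = p := by
  classical
  have hxi : x⁻¹ = x := inv_eq_of_mul_eq_one_right hx
  have hyi : y⁻¹ = y := inv_eq_of_mul_eq_one_right hy
  have r1 : ∀ z, x * (x * z) = z := fun z => by rw [← mul_assoc, hx, one_mul]
  have r2 : ∀ z, y * (y * z) = z := fun z => by rw [← mul_assoc, hy, one_mul]
  have r3 : ∀ z, y * (x * z) = x * (y * z) := fun z => by rw [← mul_assoc, ← hxy, mul_assoc]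
  let B : Subgroup G :=
    { carrier := {1, x, y, x * y}
      mul_mem' := by
        rintro g g' (rfl | rfl | rfl | rfl) (rfl | rfl | rfl | rfl) <;>
          simp [mul_assoc, r1, r2, r3, hx, hy, ← hxy]
      one_mem' := by simp
      inv_mem' := by
        rintro g (rfl | rfl | rfl | rfl) <;> simp [hxi, hyi, ← hxy] }
  have hmem : ∀ g, g ∈ B ↔ g = 1 ∨ g = x ∨ g = y ∨ g = x * y := fun g => Iff.rfl
  have hsq : ∀ g ∈ B, g ^ 2 = 1 := by
    intro g hg
    rcases (hmem g).1 hg with rfl | rfl | rfl | rfl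
    · simp
    · rw [sq, hx]
    · rw [sq, hy]
    · rw [sq, mul_assoc, r3, r1, hy]
  have hxy1 : x * y ≠ 1 := fun e => hne (by rw [← mul_one x, ← hy, ← mul_assoc, e, one_mul])
  have hcard : Nat.card B = 2 ^ 2 := by
    have : (B : Set G) = ↑({1, x, y, x * y} : Finset G) := by
      ext g; simp [hmem]
    rw [show Nat.card B = Nat.card (B : Set G) from rfl, this, Nat.card_coe_set_eq,
      Set.ncard_coe_finset, Finset.card_insert_of_notMem, Finset.card_insert_of_notMem,
      Finset.card_pair]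
    · rfl
    · exact fun e => hx1 (mul_eq_right.1 e.symm)
    · simp only [Finset.mem_insert, Finset.mem_singleton, not_or]
      exact ⟨hne, fun e => hy1 (mul_eq_left.1 e.symm)⟩
    · simp only [Finset.mem_insert, Finset.mem_singleton, not_or]
      exact ⟨hx1.symm, hy1.symm, hxy1.symm⟩
  have hcomm : ∀ g ∈ B, ∀ g' ∈ B, g * g' = g' * g := by
    intro g hg g' hg'
    have hinv : ∀ z ∈ B, z⁻¹ = z := fun z hz => inv_eq_of_mul_eq_one_right (sq z ▸ hsq z hz)
    rw [← hinv _ (B.mul_mem hg hg'), mul_inv_rev, hinv g hg, hinv g' hg']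
  have hnorm : B ≤ Subgroup.normalizer (K : Set G) := by
    intro g hg
    have key : ∀ z : G, z * z = 1 → (∀ k ∈ K, z * k * z ∈ K) →
        z ∈ Subgroup.normalizer (K : Set G) := by
      intro z hz hn
      refine Subgroup.mem_normalizer_iff.2 fun k => ?_
      rw [show z⁻¹ = z from inv_eq_of_mul_eq_one_right hz]
      refine ⟨hn k, fun hk => ?_⟩
      have := hn _ hk
      have e : z * (z * k * z) * z = z * z * k * (z * z) := by simp only [mul_assoc]
      rwa [e, hz, one_mul, mul_one] at this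
    rcases (hmem g).1 hg with rfl | rfl | rfl | rfl
    · exact one_mem _
    · exact key _ hx hnx
    · exact key _ hy hny
    · exact mul_mem (key _ hx hnx) (key _ hy hny)
  have hgen := Coprime.fixGen_eq_of_elementary (K := K) Nat.prime_two hcomm hsq hcard hnorm
    (by rw [hcard]; exact (Nat.coprime_two_left.2 hK).pow_left 2)
  intro k hk
  suffices hle : Coprime.fixGen B K ≤ stabilizer G p from hle (hgen.symm ▸ hk)
  refine iSup₂_le fun g hg => ?_
  rintro l ⟨hl, hlc⟩
  have hlg : l * g = g * l := (Subgroup.mem_centralizer_singleton_iff.1 hlc)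
  rcases (hmem g).1 hg.1 with rfl | rfl | rfl | rfl
  · exact absurd rfl hg.2
  · exact hX l hl hlg
  · exact hY l hl hlg
  · exact hZ l hl hlg

section Count

variable [Fintype X] [DecidableEq X] [Finite G]

open JordanSharp

theorem exists_four_of_card {s : Finset X} (hs : 4 ≤ s.card) :
    ∃ a b c d, Four a b c d ∧ a ∈ s ∧ b ∈ s ∧ c ∈ s ∧ d ∈ s := by
  obtain ⟨u, hu, hu4⟩ := Finset.exists_subset_card_eq hs
  let f : Fin 4 ↪ X :=
    ((u.equivFin.trans (finCongr hu4)).symm.toEmbedding).trans (Function.Embedding.subtype _)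
  have hf : ∀ i, f i ∈ s := fun i => hu (Finset.coe_mem _)
  refine ⟨f 0, f 1, f 2, f 3, ?_, hf 0, hf 1, hf 2, hf 3⟩
  simp [Four, f.injective.eq_iff]

theorem fix_le_three (h : Hyp G X) {t : G} (ht : t * t = 1) (h1 : t ≠ 1) :
    (fixF (X := X) t).card ≤ 3 := by
  by_contra hle
  obtain ⟨a, b, c, d, hf, ha, hb, hc, hd⟩ := exists_four_of_card (by omega : 4 ≤ (fixF (X := X) t).card)
  simp only [fixF, Finset.mem_filter, Finset.mem_univ, true_and] at ha hb hc hd
  exact h1 (h.odd ht hf ha hb hc hd)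

omit [Fintype X] [DecidableEq X] in
theorem ne_one_of_moved {t : G} {p : X} (hp : t • p ≠ p) : t ≠ 1 := fun e => hp (by rw [e, one_smul])

/-- All involutions have equally many fixed points when the degree is at least eight. -/
theorem fix_card_const (h : Hyp G X) (hn : 8 ≤ Fintype.card X) {t u : G} (ht : t * t = 1)
    (ht1 : t ≠ 1) (hu : u * u = 1) (hu1 : u ≠ 1) :
    (fixF (X := X) t).card = (fixF (X := X) u).card := by
  have key : ∀ v : G, v * v = 1 → v ≠ 1 → ∃ a b c d : X, Four a b c d ∧ v • a = b ∧ v • c = d := by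
    intro v hv hv1
    have hord : orderOf v = 2 := orderOf_eq_prime (by rw [sq, hv]) hv1
    have h3 : 3 ≤ (movF (X := X) v).card := by
      have := fix_le_three h hv hv1
      have := card_fix_add_mov (X := X) v
      omega
    obtain ⟨x, x0, x2⟩ := exists_mov4 hord h3
    exact ⟨x 0, x 1, x 2, x 3, by simp [Four, x.injective.eq_iff], x0, x2⟩
  obtain ⟨a, b, c, d, hf, hab, hcd⟩ := key t ht ht1
  obtain ⟨a', b', c', d', hf', hab', hcd'⟩ := key u hu hu1
  have hba : t • b = a := by rw [← hab]; exact smul_smul_inv ht a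
  have hdc : t • d = c := by rw [← hcd]; exact smul_smul_inv ht c
  have hba' : u • b' = a' := by rw [← hab']; exact smul_smul_inv hu a'
  have hdc' : u • d' = c' := by rw [← hcd']; exact smul_smul_inv hu c'
  obtain ⟨g, ga, gb, gc, gd⟩ := h.trans hf hf'
  obtain ⟨g', hg', -⟩ := exists_conj h ht hu hf g (by rw [hab, gb, ga, hab'])
    (by rw [hba, ga, gb, hba']) (by rw [hcd, gd, gc, hcd']) (by rw [hdc, gc, gd, hdc'])
  rw [← hg', fixF_conj, Finset.card_image_of_injective _ (MulAction.injective g')]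

/-- An involution of type `(a)(b)(cd)`. -/
theorem exists_transp (h : Hyp G X) {a b c d : X} (hf : Four a b c d) :
    ∃ t : G, t * t = 1 ∧ t • a = a ∧ t • b = b ∧ t • c = d ∧ t • d = c := by
  obtain ⟨h1, h2, h3, h4, h5, h6⟩ := hf
  have hf' : Four a b d c := ⟨h1, h3, h2, h5, h4, h6.symm⟩
  obtain ⟨g, ga, gb, gc, gd⟩ := h.trans (a := a) (b := b) (c := c) (d := d)
    ⟨h1, h2, h3, h4, h5, h6⟩ hf'
  obtain ⟨t, ht, -, -, r⟩ := exists_pattern h (a := a) (b := b) (c := c) (d := d)
    ⟨h1, h2, h3, h4, h5, h6⟩ g ga gb gc gd ga gb gd gc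
  exact ⟨t, ht, r⟩

/-- An involution of type `(ab)(cd)`. -/
theorem exists_double (h : Hyp G X) {a b c d : X} (hf : Four a b c d) :
    ∃ t : G, t * t = 1 ∧ t • a = b ∧ t • b = a ∧ t • c = d ∧ t • d = c := by
  obtain ⟨h1, h2, h3, h4, h5, h6⟩ := hf
  have hf' : Four b a d c := ⟨h1.symm, h5, h4, h3, h2, h6.symm⟩
  obtain ⟨g, ga, gb, gc, gd⟩ := h.trans (a := a) (b := b) (c := c) (d := d)
    ⟨h1, h2, h3, h4, h5, h6⟩ hf'
  obtain ⟨t, ht, -, -, r⟩ := exists_pattern h (a := a) (b := b) (c := c) (d := d)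
    ⟨h1, h2, h3, h4, h5, h6⟩ g ga gb gc gd gb ga gd gc
  exact ⟨t, ht, r⟩

/-- The common number of fixed points. -/
theorem fix_card_eq (h : Hyp G X) (hn : 8 ≤ Fintype.card X) {t : G} (ht : t * t = 1) (ht1 : t ≠ 1) :
    (Even (Fintype.card X) → (fixF (X := X) t).card = 2) ∧
    (Odd (Fintype.card X) → (fixF (X := X) t).card = 3) := by
  obtain ⟨a, b, c, d, hf, -⟩ := exists_four_of_card (s := (Finset.univ : Finset X))
    (by rw [Finset.card_univ]; omega)
  obtain ⟨s, hs, sa, sb, sc, -⟩ := exists_transp h hf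
  have hs1 : s ≠ 1 := ne_one_of_moved (p := c) (by rw [sc]; exact hf.2.2.2.2.2.symm)
  rw [fix_card_const h hn ht ht1 hs hs1]
  have h3 := fix_le_three h hs hs1
  have h2 : 2 ≤ (fixF (X := X) s).card := by
    rw [← Finset.card_pair hf.1]
    exact Finset.card_le_card (Finset.insert_subset_iff.2 ⟨by simp [fixF, sa], by simp [fixF, sb]⟩)
  have hp := fix_parity (X := X) (orderOf_eq_prime (by rw [sq, hs]) hs1)
  have hsum := card_fix_add_mov (X := X) s
  constructor
  · intro he; rw [Nat.even_iff] at he; omega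
  · intro ho; rw [Nat.odd_iff] at ho; omega

theorem fix_of_card_two {t : G} (hc : (fixF (X := X) t).card = 2) {p q : X} (hpq : p ≠ q)
    (hp : t • p = p) (hq : t • q = q) {z : X} (hz : t • z = z) : z = p ∨ z = q := by
  have he : ({p, q} : Finset X) = fixF (X := X) t :=
    Finset.eq_of_subset_of_card_le (Finset.insert_subset_iff.2 ⟨by simp [fixF, hp],
      by simp [fixF, hq]⟩) (by rw [hc, Finset.card_pair hpq])
  have : z ∈ ({p, q} : Finset X) := by rw [he]; simp [fixF, hz]
  simpa using this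

theorem fix_of_card_three {t : G} (hc : (fixF (X := X) t).card = 3) {p q r : X} (hpq : p ≠ q)
    (hpr : p ≠ r) (hqr : q ≠ r) (hp : t • p = p) (hq : t • q = q) (hr : t • r = r) {z : X}
    (hz : t • z = z) : z = p ∨ z = q ∨ z = r := by
  have h3 : ({p, q, r} : Finset X).card = 3 := Finset.card_eq_three.2 ⟨p, q, r, hpq, hpr, hqr, rfl⟩
  have he : ({p, q, r} : Finset X) = fixF (X := X) t :=
    Finset.eq_of_subset_of_card_le (Finset.insert_subset_iff.2 ⟨by simp [fixF, hp],
      Finset.insert_subset_iff.2 ⟨by simp [fixF, hq], by simp [fixF, hr]⟩⟩) (by rw [hc, h3])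
  have : z ∈ ({p, q, r} : Finset X) := by rw [he]; simp [fixF, hz]
  simpa using this

theorem exists_third {t : G} (hc : (fixF (X := X) t).card = 3) {p q : X} (hpq : p ≠ q) :
    ∃ r, t • r = r ∧ r ≠ p ∧ r ≠ q := by
  obtain ⟨r, hr⟩ : (fixF (X := X) t \ {p, q}).Nonempty := Finset.card_pos.1 (by
    have := Finset.le_card_sdiff {p, q} (fixF (X := X) t)
    have := Finset.card_pair hpq
    omega)
  simp only [fixF, Finset.mem_sdiff, Finset.mem_filter, Finset.mem_univ, true_and,
    Finset.mem_insert, Finset.mem_singleton, not_or] at hr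
  exact ⟨r, hr.1, hr.2.1, hr.2.2⟩

omit [DecidableEq X] in
theorem exists_outside (hn : 8 ≤ Fintype.card X) (a b c d e : X) :
    ∃ z, z ≠ a ∧ z ≠ b ∧ z ≠ c ∧ z ≠ d ∧ z ≠ e := by
  classical
  obtain ⟨z, hz⟩ : ((Finset.univ : Finset X) \ {a, b, c, d, e}).Nonempty := Finset.card_pos.1 (by
    have := Finset.le_card_sdiff ({a, b, c, d, e} : Finset X) Finset.univ
    have : ({a, b, c, d, e} : Finset X).card ≤ 5 := Finset.card_le_five
    rw [Finset.card_univ] at *
    omega)
  simp only [Finset.mem_sdiff, Finset.mem_univ, true_and, Finset.mem_insert, Finset.mem_singleton,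
    not_or] at hz
  exact ⟨z, hz⟩

end Count

end Cfsg.Agent.Lib.FourTrans
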