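import Cfsg.Agent.Lib.FourTrans.Basic

/-! # No example of even degree at least eight -/

set_option autoImplicit false
set_option linter.unusedSectionVars false

namespace Cfsg.Agent.Lib.FourTrans

open MulAction JordanSharp

variable {G X : Type*} [Group G] [MulAction G X]

/-- A point outside four given points. -/
def Out (a b c d z : X) : Prop := z ≠ a ∧ z ≠ b ∧ z ≠ c ∧ z ≠ d

theorem smul_out {a b c d z : X} {k : G} (hk : k ∈ stab4 G a b c d) (hz : Out a b c d z) :
    Out a b c d (k • z) := by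
  obtain ⟨k1, k2, k3, k4⟩ := mem_stab4.1 hk
  exact ⟨fun e => hz.1 (smul_left_cancel k (e.trans k1.symm)),
    fun e => hz.2.1 (smul_left_cancel k (e.trans k2.symm)),
    fun e => hz.2.2.1 (smul_left_cancel k (e.trans k3.symm)),
    fun e => hz.2.2.2 (smul_left_cancel k (e.trans k4.symm))⟩

theorem norm4 {a b c d : X} {t : G} (ha : t • a = a ∨ t • a = b ∨ t • a = c ∨ t • a = d)
    (hb : t • b = a ∨ t • b = b ∨ t • b = c ∨ t • b = d)
    (hc : t • c = a ∨ t • c = b ∨ t • c = c ∨ t • c = d)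
    (hd : t • d = a ∨ t • d = b ∨ t • d = c ∨ t • d = d) (ht : t * t = 1) :
    ∀ k ∈ stab4 G a b c d, t * k * t ∈ stab4 G a b c d := by
  intro k hk
  obtain ⟨k1, k2, k3, k4⟩ := mem_stab4.1 hk
  have key : ∀ p : X, (t • p = a ∨ t • p = b ∨ t • p = c ∨ t • p = d) → (t * k * t) • p = p := by
    intro p hp
    have hkp : k • t • p = t • p := by
      rcases hp with e | e | e | e <;> rw [e] <;> assumption
    rw [mul_smul, mul_smul, hkp, smul_smul_inv ht]
  exact mem_stab4.2 ⟨key a ha, key b hb, key c hc, key d hd⟩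

variable [Fintype X] [DecidableEq X] [Finite G]

section Even

variable (h : Hyp G X) (hn : 8 ≤ Fintype.card X) (he : Even (Fintype.card X))

include h hn he

theorem even_fix {t : G} (ht : t * t = 1) (ht1 : t ≠ 1) {p q : X} (hpq : p ≠ q) (hp : t • p = p)
    (hq : t • q = q) {z : X} (hz : t • z = z) : z = p ∨ z = q :=
  fix_of_card_two ((fix_card_eq h hn ht ht1).1 he) hpq hp hq hz

/-- A transposition pattern moves every orbit of the stabiliser. -/
theorem no_swap {a b c d : X} (hf : Four a b c d) {t : G} (ht : t * t = 1) (ta : t • a = a)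
    (tb : t • b = b) (tc : t • c = d) (td : t • d = c) {z : X} (hz : Out a b c d z) {k : G}
    (hk : k ∈ stab4 G a b c d) : k • z ≠ t • z := by
  intro hkz
  obtain ⟨k', hk', hfix⟩ := exists_fix_of_invariant (stab4_odd h hf) ht
    (norm4 (Or.inl ta) (Or.inr (Or.inl tb)) (Or.inr (Or.inr (Or.inr tc)))
      (Or.inr (Or.inr (Or.inl td))) ht) hk hkz
  have := smul_out hk' hz
  rcases even_fix h hn he ht (ne_one_of_moved (p := c) (by rw [tc]; exact hf.2.2.2.2.2.symm)) hf.1
    ta tb hfix with e | e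
  · exact this.1 e
  · exact this.2.1 e

/-- The stabiliser has at most two orbits outside, exchanged by a transposition pattern. -/
theorem two_orbit {a b c d : X} (hf : Four a b c d) {t : G} (ht : t * t = 1) (ta : t • a = a)
    (tb : t • b = b) (tc : t • c = d) (td : t • d = c) {z z' : X} (hz : Out a b c d z)
    (hz' : Out a b c d z') :
    (∃ k ∈ stab4 G a b c d, k • z = z') ∨ ∃ k ∈ stab4 G a b c d, k • z = t • z' := by
  have ht1 : t ≠ 1 := ne_one_of_moved (p := c) (by rw [tc]; exact hf.2.2.2.2.2.symm)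
  have hfix : ∀ w, t • w = w → w = a ∨ w = b := fun w hw => even_fix h hn he ht ht1 hf.1 ta tb hw
  have hi := smul_smul_inv (X := X) ht
  have hfour : ∀ {w : X}, Out a b c d w → Four c d w (t • w) ∧ Four c d (t • w) w := by
    intro w hw
    have h1 : w ≠ t • w := fun e => (hfix w e.symm).elim hw.1 hw.2.1
    have h2 : c ≠ t • w := fun e => hw.2.2.2 (by rw [← hi w, ← e, tc])
    have h3 : d ≠ t • w := fun e => hw.2.2.1 (by rw [← hi w, ← e, td])
    exact ⟨⟨hf.2.2.2.2.2, hw.2.2.1.symm, h2, hw.2.2.2.symm, h3, h1⟩,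
      ⟨hf.2.2.2.2.2, h2, hw.2.2.1.symm, h3, hw.2.2.2.symm, h1.symm⟩⟩
  have key : ∀ u u' : X, Four c d u' (t • u') → Four c d u (t • u) →
      ∃ g : G, g * t = t * g ∧ g • c = c ∧ g • d = d ∧ g • u = u' ∧
        ((g • a = a ∧ g • b = b) ∨ (g • a = b ∧ g • b = a)) := by
    intro u u' hu' hu
    obtain ⟨g, gc, gd, gu, gtu⟩ := h.trans hu hu'
    obtain ⟨g', hg', gc', gd', gu', -⟩ := exists_conj h ht ht hu g (by rw [tc, gd, gc, tc])
      (by rw [td, gc, gd, td]) (by rw [gtu, gu]) (by rw [hi, gu, gtu, hi])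
    have hcomm : g' * t = t * g' := mul_inv_eq_iff_eq_mul.1 hg'
    refine ⟨g', hcomm, gc'.trans gc, gd'.trans gd, gu'.trans gu, ?_⟩
    have hmap : ∀ w, t • w = w → g' • w = a ∨ g' • w = b := fun w hw =>
      hfix _ (by rw [← mul_smul, ← hcomm, mul_smul, hw])
    rcases hmap a ta with e | e
    · refine Or.inl ⟨e, (hmap b tb).resolve_left fun e' => hf.1 (smul_left_cancel g' (e.trans e'.symm))⟩
    · refine Or.inr ⟨e, (hmap b tb).resolve_right fun e' => hf.1 (smul_left_cancel g' (e.trans e'.symm))⟩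
  obtain ⟨g, -, gc, gd, gz, g12⟩ := key z z' (hfour hz').1 (hfour hz).1
  rcases g12 with ⟨ga, gb⟩ | ⟨ga, gb⟩
  · exact Or.inl ⟨g, mem_stab4.2 ⟨ga, gb, gc, gd⟩, gz⟩
  obtain ⟨g', -, gc', gd', gz'', g12'⟩ := key z (t • z') (by rw [hi]; exact (hfour hz').2) (hfour hz).1
  rcases g12' with ⟨ga', gb'⟩ | ⟨ga', gb'⟩
  · exact Or.inr ⟨g', mem_stab4.2 ⟨ga', gb', gc', gd'⟩, gz''⟩
  exfalso
  refine no_swap h hn he hf ht ta tb tc td hz' (k := g' * g⁻¹) (mem_stab4.2 ⟨?_, ?_, ?_, ?_⟩) ?_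
  · rw [mul_smul, show g⁻¹ • a = b from inv_smul_eq_iff.2 gb.symm, gb']
  · rw [mul_smul, show g⁻¹ • b = a from inv_smul_eq_iff.2 ga.symm, ga']
  · rw [mul_smul, show g⁻¹ • c = c from inv_smul_eq_iff.2 gc.symm, gc']
  · rw [mul_smul, show g⁻¹ • d = d from inv_smul_eq_iff.2 gd.symm, gd']
  · rw [mul_smul, show g⁻¹ • z' = z from inv_smul_eq_iff.2 gz.symm, gz'']

/-- A double transposition pattern keeps every orbit of the stabiliser. -/
theorem pres {a b c d : X} (hf : Four a b c d) {x : G} (hx : x * x = 1) (xa : x • a = b)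
    (xb : x • b = a) (xc : x • c = d) (xd : x • d = c) {z : X} (hz : Out a b c d z) :
    ∃ k ∈ stab4 G a b c d, k • z = x • z := by
  obtain ⟨s, hs, sa, sb, sc, sd⟩ := exists_transp h hf
  have hi := smul_smul_inv (X := X) hx
  have hxz : Out a b c d (x • z) :=
    ⟨fun e => hz.2.1 (by rw [← hi z, e, xa]), fun e => hz.1 (by rw [← hi z, e, xb]),
      fun e => hz.2.2.2 (by rw [← hi z, e, xc]), fun e => hz.2.2.1 (by rw [← hi z, e, xd])⟩
  rcases two_orbit h hn he hf hs sa sb sc sd hz hxz with hk | ⟨k, hk, hkz⟩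
  · exact hk
  exfalso
  have ga : (s * x) • a = b := by rw [mul_smul, xa, sb]
  have gb : (s * x) • b = a := by rw [mul_smul, xb, sa]
  have gc : (s * x) • c = c := by rw [mul_smul, xc, sd]
  have gd : (s * x) • d = d := by rw [mul_smul, xd, sc]
  obtain ⟨t, ht, -, ⟨k0, hk0, rfl⟩, ta, tb, tc, td⟩ := exists_pattern h hf (s * x) ga gb gc gd gb ga gc gd
  have hcd : stab4 G c d a b = stab4 G a b c d := by
    ext g; simp only [mem_stab4]; tauto
  obtain ⟨f1, f2, f3, f4, f5, f6⟩ := hf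
  have hw := smul_out ((stab4 G a b c d).inv_mem hk0) hz
  refine no_swap h hn he (a := c) (b := d) (c := a) (d := b) (z := k0⁻¹ • z)
    ⟨f6, f2.symm, f4.symm, f3.symm, f5.symm, f1⟩ ht tc td ta tb ⟨hw.2.2.1, hw.2.2.2, hw.1, hw.2.1⟩
    (k := k * k0) (hcd.symm ▸ mul_mem hk hk0) ?_
  rw [mul_smul, smul_inv_smul, hkz, mul_smul, smul_inv_smul, mul_smul]

/-- A double transposition pattern fixes a point in every orbit. -/
theorem exists_fixed {a b c d : X} (hf : Four a b c d) {x : G} (hx : x * x = 1) (xa : x • a = b)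
    (xb : x • b = a) (xc : x • c = d) (xd : x • d = c) {z : X} (hz : Out a b c d z) :
    ∃ k ∈ stab4 G a b c d, x • k • z = k • z := by
  obtain ⟨k, hk, hkz⟩ := pres h hn he hf hx xa xb xc xd hz
  exact exists_fix_of_invariant (stab4_odd h hf) hx
    (norm4 (Or.inr (Or.inl xa)) (Or.inl xb) (Or.inr (Or.inr (Or.inr xc)))
      (Or.inr (Or.inr (Or.inl xd))) hx) hk hkz

/-- It fixes only one point in each orbit. -/
theorem fix_unique {a b c d : X} (hf : Four a b c d) {x : G} (hx : x * x = 1) (xa : x • a = b)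
    (xb : x • b = a) (xc : x • c = d) (xd : x • d = c) {p p' : X} (hp : Out a b c d p)
    (xp : x • p = p) (xp' : x • p' = p') {k : G} (hk : k ∈ stab4 G a b c d) (hkp : k • p = p') :
    p' = p := by
  obtain ⟨s, hs, sa, sb, sc, sd⟩ := exists_transp h hf
  have hi := smul_smul_inv (X := X) hs
  have hsp : Out a b c d (s • p) :=
    ⟨fun e => hp.1 (by rw [← hi p, e, sa]), fun e => hp.2.1 (by rw [← hi p, e, sb]),
      fun e => hp.2.2.2 (by rw [← hi p, e, sc]), fun e => hp.2.2.1 (by rw [← hi p, e, sd])⟩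
  obtain ⟨k1, hk1, hfix⟩ := exists_fixed h hn he hf hx xa xb xc xd hsp
  have hne : ∀ k2 ∈ stab4 G a b c d, k2 • p ≠ k1 • s • p := by
    intro k2 hk2 e
    refine no_swap h hn he hf hs sa sb sc sd hp (k := k1⁻¹ * k2) (mul_mem (inv_mem hk1) hk2) ?_
    rw [mul_smul, e, inv_smul_smul]
  have hx1 : x ≠ 1 := ne_one_of_moved (p := a) (by rw [xa]; exact hf.1.symm)
  rcases even_fix h hn he hx hx1 (fun e => hne 1 (one_mem _) (by rwa [one_smul])) xp hfix xp' with
    e | e
  · exact e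
  · exact absurd (hkp.trans e) (hne k hk)

/-- Even degree at least eight is impossible. -/
theorem even_false : False := by
  obtain ⟨a, b, c, d, hf, -⟩ := exists_four_of_card (s := (Finset.univ : Finset X))
    (by rw [Finset.card_univ]; omega)
  obtain ⟨f1, f2, f3, f4, f5, f6⟩ := hf
  have hf : Four a b c d := ⟨f1, f2, f3, f4, f5, f6⟩
  have hfy : Four a c b d := ⟨f2, f1, f3, f4.symm, f6, f5⟩
  have hfz : Four a d b c := ⟨f3, f1, f2, f5.symm, f6.symm, f4⟩
  have hy4 : stab4 G a c b d = stab4 G a b c d := by ext g; simp only [mem_stab4]; tauto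
  have hz4 : stab4 G a d b c = stab4 G a b c d := by ext g; simp only [mem_stab4]; tauto
  obtain ⟨x, hx, xa, xb, xc, xd⟩ := exists_double h hf
  obtain ⟨g, gx, ga, gb, gc, gd⟩ : ∃ g : G, g * x = x * g ∧
      g • a = c ∧ g • b = d ∧ g • c = a ∧ g • d = b := by
    obtain ⟨g, ga, gb, gc, gd⟩ := h.trans hf (a' := c) (b' := d) (c' := a) (d' := b)
      ⟨f6, f2.symm, f4.symm, f3.symm, f5.symm, f1⟩
    obtain ⟨g', hg', ga', gb', gc', gd'⟩ := exists_conj h hx hx hf g (by rw [xa, gb, ga, xc])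
      (by rw [xb, ga, gb, xd]) (by rw [xc, gd, gc, xa]) (by rw [xd, gc, gd, xb])
    exact ⟨g', mul_inv_eq_iff_eq_mul.1 hg', ga'.trans ga, gb'.trans gb, gc'.trans gc, gd'.trans gd⟩
  obtain ⟨y, hy, ycomm, -, ya, yb, yc, yd⟩ := exists_pattern h hf g ga gb gc gd gc gd ga gb
  have hxy : x * y = y * x := ycomm x gx.symm
  have hzz : x * y * (x * y) = 1 := by
    calc _ = x * (y * x) * y := by simp only [mul_assoc]
      _ = x * x * (y * y) := by rw [← hxy]; simp only [mul_assoc]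
      _ = 1 := by rw [hx, hy, one_mul]
  have za : (x * y) • a = d := by rw [mul_smul, ya, xc]
  have zb : (x * y) • b = c := by rw [mul_smul, yb, xd]
  have zc : (x * y) • c = b := by rw [mul_smul, yc, xa]
  have zd : (x * y) • d = a := by rw [mul_smul, yd, xb]
  obtain ⟨z₀, z1, z2, z3, z4, -⟩ := exists_outside hn a b c d a
  obtain ⟨k₀, hk₀, hp⟩ := exists_fixed h hn he hf hx xa xb xc xd (z := z₀) ⟨z1, z2, z3, z4⟩
  have hpout := smul_out hk₀ (show Out a b c d z₀ from ⟨z1, z2, z3, z4⟩)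
  set p := k₀ • z₀ with hpdef
  have hpy : Out a c b d p := ⟨hpout.1, hpout.2.2.1, hpout.2.1, hpout.2.2.2⟩
  have hpz : Out a d b c p := ⟨hpout.1, hpout.2.2.2, hpout.2.1, hpout.2.2.1⟩
  obtain ⟨k, hk, hkp⟩ := pres h hn he hfy hy ya yc yb yd hpy
  have yp : y • p = p := fix_unique h hn he hf hx xa xb xc xd hpout hp
    (by rw [← mul_smul, hxy, mul_smul, hp]) (hy4 ▸ hk) hkp
  have zp : (x * y) • p = p := by rw [mul_smul, yp, hp]
  have hfixes : ∀ k ∈ stab4 G a b c d, k • p = p := by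
    refine gen_fix (stab4_odd h hf) hx hy hxy (ne_one_of_moved (p := a) (by rw [xa]; exact f1.symm))
      (ne_one_of_moved (p := a) (by rw [ya]; exact f2.symm))
      (fun e => f4 (by rw [← xa, e, ya]))
      (norm4 (Or.inr (Or.inl xa)) (Or.inl xb) (Or.inr (Or.inr (Or.inr xc)))
        (Or.inr (Or.inr (Or.inl xd))) hx)
      (norm4 (Or.inr (Or.inr (Or.inl ya))) (Or.inr (Or.inr (Or.inr yb))) (Or.inl yc)
        (Or.inr (Or.inl yd)) hy) ?_ ?_ ?_
    · intro k hk hc
      exact fix_unique h hn he hf hx xa xb xc xd hpout hp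
        (by rw [← mul_smul, ← hc, mul_smul, hp]) hk rfl
    · intro k hk hc
      exact fix_unique h hn he hfy hy ya yc yb yd hpy yp
        (by rw [← mul_smul, ← hc, mul_smul, yp]) (hy4.symm ▸ hk) rfl
    · intro k hk hc
      exact fix_unique h hn he hfz hzz za zd zb zc hpz zp
        (by rw [← mul_smul, ← hc, mul_smul, zp]) (hz4.symm ▸ hk) rfl
  obtain ⟨s, hs, sa, sb, sc, sd⟩ := exists_transp h hf
  have huniv : (Finset.univ : Finset X) ⊆ {a, b, c, d, p, s • p} := by
    intro w _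
    simp only [Finset.mem_insert, Finset.mem_singleton]
    by_contra hw
    simp only [not_or] at hw
    obtain ⟨w1, w2, w3, w4, w5, w6⟩ := hw
    rcases two_orbit h hn he hf hs sa sb sc sd hpout ⟨w1, w2, w3, w4⟩ with ⟨k, hk, e⟩ | ⟨k, hk, e⟩
    · exact w5 (by rw [← e, hfixes k hk])
    · exact w6 (by rw [← hfixes k hk, e, smul_smul_inv hs])
  have := Finset.card_le_card huniv
  have h6 : ({a, b, c, d, p, s • p} : Finset X).card ≤ 6 := Finset.card_le_six
  rw [Finset.card_univ] at this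
  omega

end Even

end Cfsg.Agent.Lib.FourTrans
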