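import Cfsg.Agent.Lib.FourTrans.Even
import Mathlib.GroupTheory.GroupAction.SubMulAction.OfStabilizer

/-! # Odd degree at least nine: the stabiliser is trivial -/

set_option autoImplicit false
set_option linter.unusedSectionVars false

namespace Cfsg.Agent.Lib.FourTrans

open MulAction JordanSharp

variable {G X : Type*} [Group G] [MulAction G X]

/-- An element of odd order moving one of three permuted points cycles them. -/
theorem cycle3 {K : Subgroup G} (hK : Odd (Nat.card K)) {k : G} (hk : k ∈ K) {u v s : X}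
    (huv : u ≠ v) (hus : u ≠ s) (hvs : v ≠ s) (hu : k • u = v)
    (hv : k • v = u ∨ k • v = v ∨ k • v = s) (hs : k • s = u ∨ k • s = v ∨ k • s = s) :
    k • v = s ∧ k • s = u := by
  have hv' : k • v ≠ v := fun e => huv (smul_left_cancel k (hu.trans e.symm))
  have hs' : k • s ≠ v := fun e => hus (smul_left_cancel k (hu.trans e.symm))
  rcases hv with e | e | e
  · rcases hs with e' | e' | e'
    · exact absurd (smul_left_cancel k (e.trans e'.symm)) hvs
    · exact absurd e' hs'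
    · exact absurd (fix_other hK hk e' (v := v) (s := u) (Or.inr (Or.inr e))
        (Or.inr (Or.inl hu)) hvs hus) hv'
  · exact absurd e hv'
  · refine ⟨e, ?_⟩
    rcases hs with e' | e' | e'
    · exact e'
    · exact absurd e' hs'
    · exact absurd (smul_left_cancel k (e.trans e'.symm)) hvs

theorem conj_stab4 {a b c d a' b' c' d' : X} {g k : G} (ga : g • a = a') (gb : g • b = b')
    (gc : g • c = c') (gd : g • d = d') (hk : k ∈ stab4 G a b c d) :
    g * k * g⁻¹ ∈ stab4 G a' b' c' d' := by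
  obtain ⟨k1, k2, k3, k4⟩ := mem_stab4.1 hk
  subst ga gb gc gd
  refine mem_stab4.2 ⟨?_, ?_, ?_, ?_⟩ <;> rw [mul_smul, mul_smul, inv_smul_smul]
  exacts [by rw [k1], by rw [k2], by rw [k3], by rw [k4]]

theorem card_stab4_eq [Finite G] (h : Hyp G X) {a b c d a' b' c' d' : X} (hf : Four a b c d)
    (hf' : Four a' b' c' d') : Nat.card (stab4 G a b c d) = Nat.card (stab4 G a' b' c' d') := by
  have key : ∀ {a b c d a' b' c' d' : X}, Four a b c d → Four a' b' c' d' →
      Nat.card (stab4 G a b c d) ≤ Nat.card (stab4 G a' b' c' d') := by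
    intro a b c d a' b' c' d' hf hf'
    obtain ⟨g, ga, gb, gc, gd⟩ := h.trans hf hf'
    refine Nat.card_le_card_of_injective
      (fun k => (⟨g * k * g⁻¹, conj_stab4 ga gb gc gd k.2⟩ : stab4 G a' b' c' d')) fun k k' e => ?_
    have := congrArg Subtype.val e
    exact Subtype.ext (by simpa using this)
  exact le_antisymm (key hf hf') (key hf' hf)

theorem stab4_eq_of_fix [Finite G] (h : Hyp G X) {a b c d a' b' c' d' : X} (hf : Four a b c d)
    (hf' : Four a' b' c' d') (ha : ∀ k ∈ stab4 G a b c d, k • a' = a')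
    (hb : ∀ k ∈ stab4 G a b c d, k • b' = b') (hc : ∀ k ∈ stab4 G a b c d, k • c' = c')
    (hd : ∀ k ∈ stab4 G a b c d, k • d' = d') : stab4 G a b c d = stab4 G a' b' c' d' :=
  Subgroup.eq_of_le_of_card_ge (fun k hk => mem_stab4.2 ⟨ha k hk, hb k hk, hc k hk, hd k hk⟩)
    (card_stab4_eq h hf hf').ge

variable [Fintype X] [DecidableEq X] [Finite G]

/-- The configuration of commuting patterns on four points and their common fixed point. -/
structure Config (G : Type*) {X : Type*} [Group G] [MulAction G X] (a b c d : X) (x s : G)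
    (w p : X) : Prop where
  hf : Four a b c d
  hx : x * x = 1
  xa : x • a = b
  xb : x • b = a
  xc : x • c = d
  xd : x • d = c
  hs : s * s = 1
  sa : s • a = a
  sb : s • b = b
  sc : s • c = d
  sd : s • d = c
  comm : x * s = s * x
  sw : s • w = w
  xw : x • w = w
  wout : Out a b c d w
  xp : x • p = p
  pw : p ≠ w

section Odd

variable (h : Hyp G X) (hn : 9 ≤ Fintype.card X) (ho : Odd (Fintype.card X))

include h hn ho

theorem odd_fix {t : G} (ht : t * t = 1) (ht1 : t ≠ 1) {p q r : X} (hpq : p ≠ q) (hpr : p ≠ r)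
    (hqr : q ≠ r) (hp : t • p = p) (hq : t • q = q) (hr : t • r = r) {z : X} (hz : t • z = z) :
    z = p ∨ z = q ∨ z = r :=
  fix_of_card_three ((fix_card_eq h (by omega) ht ht1).2 ho) hpq hpr hqr hp hq hr hz

theorem exists_config {a b c d : X} (hf : Four a b c d) :
    ∃ x s w p, Config G a b c d x s w p := by
  obtain ⟨x, hx, xa, xb, xc, xd⟩ := exists_double h hf
  obtain ⟨f1, f2, f3, f4, f5, f6⟩ := hf
  have hf : Four a b c d := ⟨f1, f2, f3, f4, f5, f6⟩
  obtain ⟨g, gx, ga, gb, gc, gd⟩ : ∃ g : G, g * x = x * g ∧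
      g • a = a ∧ g • b = b ∧ g • c = d ∧ g • d = c := by
    obtain ⟨g, ga, gb, gc, gd⟩ := h.trans hf (a' := a) (b' := b) (c' := d) (d' := c)
      ⟨f1, f3, f2, f5, f4, f6.symm⟩
    obtain ⟨g', hg', ga', gb', gc', gd'⟩ := exists_conj h hx hx hf g (by rw [xa, gb, ga, xa])
      (by rw [xb, ga, gb, xb]) (by rw [xc, gd, gc, xd]) (by rw [xd, gc, gd, xc])
    exact ⟨g', mul_inv_eq_iff_eq_mul.1 hg', ga'.trans ga, gb'.trans gb, gc'.trans gc, gd'.trans gd⟩
  obtain ⟨s, hs, scomm, -, sa, sb, sc, sd⟩ := exists_pattern h hf g ga gb gc gd ga gb gd gc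
  have hxs : x * s = s * x := scomm x gx.symm
  have hs1 : s ≠ 1 := ne_one_of_moved (p := c) (by rw [sc]; exact f6.symm)
  have hx1 : x ≠ 1 := ne_one_of_moved (p := a) (by rw [xa]; exact f1.symm)
  obtain ⟨w, sw, wa, wb⟩ := exists_third ((fix_card_eq h (by omega) hs hs1).2 ho) f1
  have wc : w ≠ c := fun e => f6 (by rw [← sc, ← e, sw])
  have wd : w ≠ d := fun e => f6 (by rw [← sd, ← e, sw])
  have hi := smul_smul_inv (X := X) hx
  have xw : x • w = w := by
    rcases odd_fix h hn ho hs hs1 f1 wa.symm wb.symm sa sb sw (z := x • w)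
      (by rw [← mul_smul, ← hxs, mul_smul, sw]) with e | e | e
    · exact absurd (by rw [← hi w, e, xa]) wb
    · exact absurd (by rw [← hi w, e, xb]) wa
    · exact e
  obtain ⟨p, hp, hpw⟩ := Finset.exists_mem_ne (s := fixF (X := X) x)
    (by rw [(fix_card_eq h (by omega) hx hx1).2 ho]; norm_num) w
  simp only [fixF, Finset.mem_filter, Finset.mem_univ, true_and] at hp
  exact ⟨x, s, w, p, hf, hx, xa, xb, xc, xd, hs, sa, sb, sc, sd, hxs, sw, xw, ⟨wa, wb, wc, wd⟩, hp,
    hpw⟩

variable {a b c d : X} {x s : G} {w p : X}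

theorem Config.s_ne_one (C : Config G a b c d x s w p) : s ≠ 1 :=
  ne_one_of_moved (p := c) (by rw [C.sc]; exact C.hf.2.2.2.2.2.symm)

theorem Config.x_ne_one (C : Config G a b c d x s w p) : x ≠ 1 :=
  ne_one_of_moved (p := a) (by rw [C.xa]; exact C.hf.1.symm)

theorem Config.fix_s (C : Config G a b c d x s w p) {z : X} (hz : s • z = z) :
    z = a ∨ z = b ∨ z = w :=
  odd_fix h hn ho C.hs (C.s_ne_one h hn ho) C.hf.1 C.wout.1.symm C.wout.2.1.symm C.sa C.sb C.sw hz

theorem Config.p_out (C : Config G a b c d x s w p) : Out a b c d p :=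
  ⟨fun e => C.hf.1.symm (by rw [← C.xa, ← e, C.xp]), fun e => C.hf.1 (by rw [← C.xb, ← e, C.xp]),
    fun e => C.hf.2.2.2.2.2.symm (by rw [← C.xc, ← e, C.xp]),
    fun e => C.hf.2.2.2.2.2 (by rw [← C.xd, ← e, C.xp])⟩

theorem Config.sp (C : Config G a b c d x s w p) :
    x • s • p = s • p ∧ s • p ≠ p ∧ s • p ≠ w ∧ Out a b c d (s • p) := by
  have hi := smul_smul_inv (X := X) C.hs
  have hp := C.p_out h hn ho
  refine ⟨by rw [← mul_smul, C.comm, mul_smul, C.xp], ?_,
    fun e => C.pw (by rw [← hi p, e, C.sw]), ?_, ?_, ?_, ?_⟩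
  · intro e
    rcases C.fix_s h hn ho e with e | e | e
    · exact hp.1 e
    · exact hp.2.1 e
    · exact C.pw e
  · exact fun e => hp.1 (by rw [← hi p, e, C.sa])
  · exact fun e => hp.2.1 (by rw [← hi p, e, C.sb])
  · exact fun e => hp.2.2.2 (by rw [← hi p, e, C.sc])
  · exact fun e => hp.2.2.1 (by rw [← hi p, e, C.sd])

theorem Config.fix_x (C : Config G a b c d x s w p) {z : X} (hz : x • z = z) :
    z = w ∨ z = p ∨ z = s • p :=
  odd_fix h hn ho C.hx (C.x_ne_one h hn ho) C.pw.symm (C.sp h hn ho).2.2.1.symm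
    (C.sp h hn ho).2.1.symm C.xw C.xp (C.sp h hn ho).1 hz

theorem Config.norm_s (C : Config G a b c d x s w p) :
    ∀ k ∈ stab4 G a b c d, s * k * s ∈ stab4 G a b c d :=
  norm4 (Or.inl C.sa) (Or.inr (Or.inl C.sb)) (Or.inr (Or.inr (Or.inr C.sc)))
    (Or.inr (Or.inr (Or.inl C.sd))) C.hs

theorem Config.norm_x (C : Config G a b c d x s w p) :
    ∀ k ∈ stab4 G a b c d, x * k * x ∈ stab4 G a b c d :=
  norm4 (Or.inr (Or.inl C.xa)) (Or.inl C.xb) (Or.inr (Or.inr (Or.inr C.xc)))
    (Or.inr (Or.inr (Or.inl C.xd))) C.hx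

/-- Either the stabiliser fixes the common point, or an element of it commuting with the double
pattern moves it. -/
theorem Config.dichotomy (C : Config G a b c d x s w p)
    (hX : ∀ k ∈ stab4 G a b c d, k * x = x * k → k • w = w) :
    ∀ k ∈ stab4 G a b c d, k • w = w := by
  have hzz : x * s * (x * s) = 1 := by
    calc _ = x * (s * x) * s := by simp only [mul_assoc]
      _ = x * x * (s * s) := by rw [← C.comm]; simp only [mul_assoc]
      _ = 1 := by rw [C.hx, C.hs, one_mul]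
  have zc : (x * s) • c = c := by rw [mul_smul, C.sc, C.xd]
  have zd : (x * s) • d = d := by rw [mul_smul, C.sd, C.xc]
  have za : (x * s) • a = b := by rw [mul_smul, C.sa, C.xa]
  have zw : (x * s) • w = w := by rw [mul_smul, C.sw, C.xw]
  refine gen_fix (stab4_odd h C.hf) C.hx C.hs C.comm (C.x_ne_one h hn ho) (C.s_ne_one h hn ho)
    (fun e => C.hf.1 (by rw [← C.xa, e, C.sa])) (C.norm_x h hn ho) (C.norm_s h hn ho) hX ?_ ?_
  · intro k hk hc
    have hkw := smul_out hk C.wout
    rcases C.fix_s h hn ho (z := k • w) (by rw [← mul_smul, ← hc, mul_smul, C.sw]) with e | e | e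
    · exact absurd e hkw.1
    · exact absurd e hkw.2.1
    · exact e
  · intro k hk hc
    have hkw := smul_out hk C.wout
    rcases odd_fix h hn ho hzz (ne_one_of_moved (p := a) (by rw [za]; exact C.hf.1.symm))
      C.hf.2.2.2.2.2 C.wout.2.2.1.symm C.wout.2.2.2.symm zc zd zw (z := k • w)
      (by rw [← mul_smul, ← hc, mul_smul, zw]) with e | e | e
    · exact absurd e hkw.2.2.1
    · exact absurd e hkw.2.2.2
    · exact e

theorem Config.four_pair (C : Config G a b c d x s w p) {z : X} (hz : Out a b c d z) (hzw : z ≠ w) :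
    Four c d z (s • z) := by
  have hi := smul_smul_inv (X := X) C.hs
  refine ⟨C.hf.2.2.2.2.2, hz.2.2.1.symm, fun e => hz.2.2.2 (by rw [← hi z, ← e, C.sc]),
    hz.2.2.2.symm, fun e => hz.2.2.1 (by rw [← hi z, ← e, C.sd]), fun e => ?_⟩
  rcases C.fix_s h hn ho e.symm with e' | e' | e'
  · exact hz.1 e'
  · exact hz.2.1 e'
  · exact hzw e'

/-- The double pattern is carried to the single one at any further pair. -/
theorem Config.carry (C : Config G a b c d x s w p) {z : X} (hz : Out a b c d z) (hzw : z ≠ w) :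
    ∃ g : G, g * x * g⁻¹ = s ∧ g • a = c ∧ g • b = d ∧ g • c = z ∧ g • d = s • z := by
  obtain ⟨g, ga, gb, gc, gd⟩ := h.trans C.hf (C.four_pair h hn ho hz hzw)
  obtain ⟨g', hg', ga', gb', gc', gd'⟩ := exists_conj h C.hx C.hs C.hf g
    (by rw [C.xa, gb, ga, C.sc]) (by rw [C.xb, ga, gb, C.sd]) (by rw [C.xc, gd, gc])
    (by rw [C.xd, gc, gd, smul_smul_inv C.hs])
  exact ⟨g', hg', ga'.trans ga, gb'.trans gb, gc'.trans gc, gd'.trans gd⟩

/-- If the common point is moved then the stabiliser is transitive outside. -/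
theorem Config.trans_out (C : Config G a b c d x s w p) {h₀ : G} (hh : h₀ ∈ stab4 G a b c d)
    (hhx : h₀ * x = x * h₀) (hhw : h₀ • w ≠ w) {z : X} (hz : Out a b c d z) :
    ∃ k ∈ stab4 G a b c d, k • w = z := by
  have hodd := stab4_odd h C.hf
  obtain ⟨sp1, sp2, sp3, sp4⟩ := C.sp h hn ho
  have perm : ∀ v, x • v = v → h₀ • v = w ∨ h₀ • v = p ∨ h₀ • v = s • p := fun v hv =>
    C.fix_x h hn ho (by rw [← mul_smul, ← hhx, mul_smul, hv])
  have hRp : (∃ k ∈ stab4 G a b c d, k • w = p) ∧ ∃ k ∈ stab4 G a b c d, k • w = s • p := by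
    rcases perm w C.xw with e | e | e
    · exact absurd e hhw
    · obtain ⟨e2, -⟩ := cycle3 hodd hh C.pw.symm sp3.symm sp2.symm e (perm p C.xp) (perm _ sp1)
      exact ⟨⟨h₀, hh, e⟩, h₀ * h₀, mul_mem hh hh, by rw [mul_smul, e, e2]⟩
    · obtain ⟨e2, -⟩ := cycle3 hodd hh sp3.symm C.pw.symm sp2 e
        ((perm _ sp1).imp id fun e => e.elim Or.inr Or.inl)
        ((perm p C.xp).imp id fun e => e.elim Or.inr Or.inl)
      exact ⟨⟨h₀ * h₀, mul_mem hh hh, by rw [mul_smul, e, e2]⟩, h₀, hh, e⟩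
  by_cases hzw : z = w
  · exact ⟨1, one_mem _, by rw [hzw, one_smul]⟩
  have hi := smul_smul_inv (X := X) C.hs
  -- carrying a pair to another pair inside the centraliser of `s`
  have key : ∀ u u' : X, Four c d u' (s • u') → Four c d u (s • u) →
      (∃ g₁ : G, g₁ * x * g₁⁻¹ = s ∧ g₁ • a = c ∧ g₁ • b = d ∧ g₁ • c = u' ∧ g₁ • d = s • u') →
      ∃ g : G, g • a = a ∧ g • c = c ∧ g • d = d ∧ g • u = u' ∧
        ((g • b = b ∧ g • w = w) ∨ (g • b = w ∧ g • w = b)) := by
    rintro u u' hu' hu ⟨g₁, hg₁, g1a, g1b, g1c, g1d⟩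
    obtain ⟨g, gc, gd, gu, gsu⟩ := h.trans hu hu'
    obtain ⟨g', hg', gc', gd', gu', gsu'⟩ := exists_conj h C.hs C.hs hu g (by rw [C.sc, gd, gc, C.sc])
      (by rw [C.sd, gc, gd, C.sd]) (by rw [gsu, gu]) (by rw [hi, gu, gsu, hi])
    have hcomm : g' * s = s * g' := mul_inv_eq_iff_eq_mul.1 hg'
    set k := g₁ * h₀ * g₁⁻¹ with hkdef
    have hk : k ∈ stab4 G c d u' (s • u') := conj_stab4 g1a g1b g1c g1d hh
    have hks : k * s = s * k := by
      rw [hkdef, ← hg₁]
      calc _ = g₁ * (h₀ * x) * g₁⁻¹ := by group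
        _ = g₁ * (x * h₀) * g₁⁻¹ := by rw [hhx]
        _ = _ := by group
    have hmap : ∀ (l : G), l * s = s * l → ∀ v, s • v = v → l • v = a ∨ l • v = b ∨ l • v = w :=
      fun l hl v hv => C.fix_s h hn ho (by rw [← mul_smul, ← hl, mul_smul, hv])
    have hoddk := stab4_odd h hu'
    have hka : k • a ≠ a := by
      intro e
      have eb : k • b = b := fix_other hoddk hk e (hmap k hks b C.sb) (hmap k hks w C.sw)
        C.hf.1.symm C.wout.1
      have ew : k • w = w := fix_other hoddk hk e (v := w) (s := b)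
        ((hmap k hks w C.sw).imp id fun e => e.elim Or.inr Or.inl)
        ((hmap k hks b C.sb).imp id fun e => e.elim Or.inr Or.inl) C.wout.1 C.hf.1.symm
      have hkv : k • g₁ • w = g₁ • w := by
        rcases C.fix_s h hn ho (z := g₁ • w)
          (by rw [← hg₁, mul_smul, mul_smul, inv_smul_smul, C.xw]) with e' | e' | e' <;> rw [e'] <;>
          assumption
      refine hhw (smul_left_cancel g₁ ?_)
      rwa [hkdef, mul_smul, mul_smul, inv_smul_smul] at hkv
    -- a power of `k` brings the image of `a` back to `a`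
    obtain ⟨l, hl, hls, hla⟩ : ∃ l ∈ stab4 G c d u' (s • u'), l * s = s * l ∧
        l • g' • a = a := by
      rcases hmap k hks a C.sa with e | e | e
      · exact absurd e hka
      · obtain ⟨e2, e3⟩ := cycle3 hoddk hk C.hf.1 C.wout.1.symm C.wout.2.1.symm e
          (hmap k hks b C.sb) (hmap k hks w C.sw)
        rcases hmap g' hcomm a C.sa with e' | e' | e'
        · exact ⟨1, one_mem _, by simp, by rw [one_smul, e']⟩
        · exact ⟨k * k, mul_mem hk hk, by rw [mul_assoc, hks, ← mul_assoc, hks, mul_assoc],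
            by rw [mul_smul, e', e2, e3]⟩
        · exact ⟨k, hk, hks, by rw [e', e3]⟩
      · obtain ⟨e2, e3⟩ := cycle3 hoddk hk C.wout.1.symm C.hf.1 C.wout.2.1 e
          ((hmap k hks w C.sw).imp id fun e => e.elim Or.inr Or.inl)
          ((hmap k hks b C.sb).imp id fun e => e.elim Or.inr Or.inl)
        rcases hmap g' hcomm a C.sa with e' | e' | e'
        · exact ⟨1, one_mem _, by simp, by rw [one_smul, e']⟩
        · exact ⟨k, hk, hks, by rw [e', e3]⟩
        · exact ⟨k * k, mul_mem hk hk, by rw [mul_assoc, hks, ← mul_assoc, hks, mul_assoc],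
            by rw [mul_smul, e', e2, e3]⟩
    obtain ⟨l1, l2, l3, -⟩ := mem_stab4.1 hl
    have hlg : (l * g') * s = s * (l * g') := by rw [mul_assoc, hcomm, ← mul_assoc, hls, mul_assoc]
    have ga : (l * g') • a = a := by rw [mul_smul, hla]
    refine ⟨l * g', ga, by rw [mul_smul, gc', gc, l1], by rw [mul_smul, gd', gd, l2],
      by rw [mul_smul, gu', gu, l3], ?_⟩
    have nb : (l * g') • b ≠ a := fun e => C.hf.1 (smul_left_cancel _ (ga.trans e.symm))
    have nw : (l * g') • w ≠ a := fun e => C.wout.1 (smul_left_cancel _ (e.trans ga.symm))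
    rcases (hmap _ hlg b C.sb).resolve_left nb with eb | eb
    · refine Or.inl ⟨eb, ((hmap _ hlg w C.sw).resolve_left nw).resolve_left fun e => ?_⟩
      exact C.wout.2.1 (smul_left_cancel _ (e.trans eb.symm))
    · refine Or.inr ⟨eb, ((hmap _ hlg w C.sw).resolve_left nw).resolve_right fun e => ?_⟩
      exact C.wout.2.1 (smul_left_cancel _ (e.trans eb.symm))
  have hp := C.p_out h hn ho
  have hsz : Out a b c d (s • z) ∧ s • z ≠ w :=
    ⟨⟨fun e => hz.1 (by rw [← hi z, e, C.sa]), fun e => hz.2.1 (by rw [← hi z, e, C.sb]),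
      fun e => hz.2.2.2 (by rw [← hi z, e, C.sc]), fun e => hz.2.2.1 (by rw [← hi z, e, C.sd])⟩,
      fun e => hzw (by rw [← hi z, e, C.sw])⟩
  have hfz := C.four_pair h hn ho hz hzw
  have hfp := C.four_pair h hn ho hp C.pw
  obtain ⟨g, ga, gc, gd, gp, gb⟩ := key p z hfz hfp (C.carry h hn ho hz hzw)
  rcases gb with ⟨gb, -⟩ | ⟨gb, gw⟩
  · obtain ⟨k, hk, hkw⟩ := hRp.1
    exact ⟨g * k, mul_mem (mem_stab4.2 ⟨ga, gb, gc, gd⟩) hk, by rw [mul_smul, hkw, gp]⟩
  obtain ⟨g', ga', gc', gd', gp', gb'⟩ := key p (s • z) (C.four_pair h hn ho hsz.1 hsz.2) hfp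
    (C.carry h hn ho hsz.1 hsz.2)
  rcases gb' with ⟨gb', -⟩ | ⟨gb', gw'⟩
  · obtain ⟨k, hk, hkw⟩ := hRp.2
    refine ⟨s * g' * s * k,
      mul_mem (C.norm_s h hn ho _ (mem_stab4.2 ⟨ga', gb', gc', gd'⟩)) hk, ?_⟩
    rw [mul_smul, hkw, mul_smul, hi, mul_smul, gp', hi]
  have hswap : g' * g⁻¹ ∈ stab4 G a b c d := mem_stab4.2 ⟨by
    rw [mul_smul, show g⁻¹ • a = a from inv_smul_eq_iff.2 ga.symm, ga'], by
    rw [mul_smul, show g⁻¹ • b = w from inv_smul_eq_iff.2 gw.symm, gw'], by
    rw [mul_smul, show g⁻¹ • c = c from inv_smul_eq_iff.2 gc.symm, gc'], by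
    rw [mul_smul, show g⁻¹ • d = d from inv_smul_eq_iff.2 gd.symm, gd']⟩
  obtain ⟨k, hk, hfix⟩ := exists_fix_of_invariant hodd C.hs (C.norm_s h hn ho) hswap
    (c := z) (by rw [mul_smul, show g⁻¹ • z = p from inv_smul_eq_iff.2 gp.symm, gp'])
  have hkz := smul_out hk hz
  refine ⟨k⁻¹, inv_mem hk, inv_smul_eq_iff.2 ?_⟩
  rcases C.fix_s h hn ho hfix with e | e | e
  · exact absurd e hkz.1
  · exact absurd e hkz.2.1
  · exact e.symm

/-- The moved case cannot occur. -/
theorem Config.not_moved (C : Config G a b c d x s w p) :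
    ∀ k ∈ stab4 G a b c d, k • w = w := by
  refine C.dichotomy h hn ho fun h₀ hh hhx => by_contra fun hhw => ?_
  have htr : ∀ {a' b' c' d' u v : X}, Four a' b' c' d' → Out a' b' c' d' u → Out a' b' c' d' v →
      ∃ k ∈ stab4 G a' b' c' d', k • u = v := by
    intro a' b' c' d' u v hf' hu hv
    obtain ⟨g, ga, gb, gc, gd⟩ := h.trans hf' C.hf
    have hout : ∀ {t : X}, Out a' b' c' d' t → Out a b c d (g • t) := by
      intro t ht
      subst ga gb gc gd
      simpa [Out] using ht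
    obtain ⟨k1, hk1, e1⟩ := C.trans_out h hn ho hh hhx hhw (hout hu)
    obtain ⟨k2, hk2, e2⟩ := C.trans_out h hn ho hh hhx hhw (hout hv)
    have := conj_stab4 (g := g⁻¹) (inv_smul_eq_iff.2 ga.symm) (inv_smul_eq_iff.2 gb.symm)
      (inv_smul_eq_iff.2 gc.symm) (inv_smul_eq_iff.2 gd.symm) (mul_mem hk2 (inv_mem hk1))
    refine ⟨_, this, ?_⟩
    rw [inv_inv, mul_smul, mul_smul, mul_smul,
      show k1⁻¹ • g • u = w from inv_smul_eq_iff.2 e1.symm, e2, inv_smul_smul]
  let Y := SubMulAction.ofStabilizer G w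
  have hne : ∀ q : Y, (q : X) ≠ w := fun q => q.2
  have hcoe : ∀ {a₁ b₁ c₁ d₁ : Y}, Four a₁ b₁ c₁ d₁ → Four (a₁ : X) b₁ c₁ d₁ := fun hq =>
    ⟨Subtype.coe_injective.ne hq.1, Subtype.coe_injective.ne hq.2.1,
      Subtype.coe_injective.ne hq.2.2.1, Subtype.coe_injective.ne hq.2.2.2.1,
      Subtype.coe_injective.ne hq.2.2.2.2.1, Subtype.coe_injective.ne hq.2.2.2.2.2⟩
  have h' : Hyp (stabilizer G w) Y := by
    refine ⟨?_, ?_, ?_⟩
    · intro g hg
      refine Subtype.ext (h.faith _ fun q => ?_)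
      by_cases hq : q = w
      · rw [hq]; exact g.2
      · exact congrArg Subtype.val (hg ⟨q, hq⟩)
    · intro a₁ b₁ c₁ d₁ a₂ b₂ c₂ d₂ h₁ h₂
      have h₁' := hcoe h₁
      have h₂' := hcoe h₂
      obtain ⟨g, ga, gb, gc, gd⟩ := h.trans h₁' h₂'
      have hgw : Out (a₂ : X) b₂ c₂ d₂ (g • w) :=
        ⟨fun e => hne a₁ (smul_left_cancel g (ga.trans e.symm)),
          fun e => hne b₁ (smul_left_cancel g (gb.trans e.symm)),
          fun e => hne c₁ (smul_left_cancel g (gc.trans e.symm)),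
          fun e => hne d₁ (smul_left_cancel g (gd.trans e.symm))⟩
      obtain ⟨k, hk, hkw⟩ := htr h₂' hgw ⟨(hne a₂).symm, (hne b₂).symm, (hne c₂).symm, (hne d₂).symm⟩
      obtain ⟨k1, k2, k3, k4⟩ := mem_stab4.1 hk
      refine ⟨⟨k * g, by rw [mem_stabilizer_iff, mul_smul, hkw]⟩, Subtype.ext ?_, Subtype.ext ?_,
        Subtype.ext ?_, Subtype.ext ?_⟩
      · show (k * g) • (a₁ : X) = a₂; rw [mul_smul, ga, k1]
      · show (k * g) • (b₁ : X) = b₂; rw [mul_smul, gb, k2]
      · show (k * g) • (c₁ : X) = c₂; rw [mul_smul, gc, k3]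
      · show (k * g) • (d₁ : X) = d₂; rw [mul_smul, gd, k4]
    · intro t ht a₁ b₁ c₁ d₁ h₁ e1 e2 e3 e4
      refine Subtype.ext (h.odd (congrArg Subtype.val ht) (a := (a₁ : X)) (b := b₁) (c := c₁)
        (d := d₁) (hcoe h₁) (congrArg Subtype.val e1)
        (congrArg Subtype.val e2) (congrArg Subtype.val e3) (congrArg Subtype.val e4))
  classical
  haveI : Fintype Y := Fintype.ofFinite Y
  have hcard := card_ofStabilizer (G := G) w
  change Fintype.card Y + 1 = Fintype.card X at hcard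
  refine even_false h' (by omega) ?_
  rw [Nat.odd_iff] at ho
  rw [Nat.even_iff]
  omega

/-- When the stabiliser fixes exactly five points, involutions fixing three given points agree. -/
theorem inv_unique (hfive : ∀ {a b c d : X}, Four a b c d → ∃ e, Out a b c d e ∧
      ∀ z, (∀ k ∈ stab4 G a b c d, k • z = z) ↔ z = a ∨ z = b ∨ z = c ∨ z = d ∨ z = e)
    {a b w : X} (hab : a ≠ b) (haw : a ≠ w) (hbw : b ≠ w) {t u : G} (ht : t * t = 1) (ht1 : t ≠ 1)
    (hu : u * u = 1) (hu1 : u ≠ 1) (ta : t • a = a) (tb : t • b = b) (tw : t • w = w)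
    (ua : u • a = a) (ub : u • b = b) (uw : u • w = w) : t = u := by
  suffices key : ∀ z, t • z = u • z by
    have := h.faith (u⁻¹ * t) fun z => by rw [mul_smul, key, inv_smul_smul]
    exact (inv_mul_eq_one.1 this).symm
  intro z
  by_cases hz : z = a ∨ z = b ∨ z = w
  · rcases hz with rfl | rfl | rfl
    · rw [ta, ua]
    · rw [tb, ub]
    · rw [tw, uw]
  simp only [not_or] at hz
  obtain ⟨za, zb, zw⟩ := hz
  have block : ∀ v : G, v * v = 1 → v ≠ 1 → v • a = a → v • b = b → v • w = w →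
      Four a b z (v • z) ∧
      (∀ y, (∀ k ∈ stab4 G a b z (v • z), k • y = y) ↔
        y = a ∨ y = b ∨ y = z ∨ y = v • z ∨ y = w) ∧
      stab4 G a b z (v • z) = stab4 G a b w z := by
    intro v hv hv1 va vb vw
    have hi := smul_smul_inv (X := X) hv
    have hfix := fun {y : X} (hy : v • y = y) => odd_fix h hn ho hv hv1 hab haw hbw va vb vw hy
    have hf : Four a b z (v • z) := by
      refine ⟨hab, (Ne.symm za), fun e => za (by rw [← hi z, ← e, va]), (Ne.symm zb),
        fun e => zb (by rw [← hi z, ← e, vb]), fun e => ?_⟩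
      rcases hfix e.symm with e' | e' | e'
      · exact za e'
      · exact zb e'
      · exact zw e'
    obtain ⟨e, he, hiff⟩ := hfive hf
    have hn4 := norm4 (G := G) (a := a) (b := b) (c := z) (d := v • z) (Or.inl va)
      (Or.inr (Or.inl vb)) (Or.inr (Or.inr (Or.inr rfl))) (Or.inr (Or.inr (Or.inl (hi z)))) hv
    have hve : v • e = e := by
      have hfixed : ∀ k ∈ stab4 G a b z (v • z), k • v • e = v • e := by
        intro k hk
        have := ((hiff e).2 (Or.inr (Or.inr (Or.inr (Or.inr rfl))))) _ (hn4 k hk)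
        rw [mul_smul, mul_smul] at this
        rw [← hi (k • v • e), this]
      rcases (hiff _).1 hfixed with e' | e' | e' | e' | e'
      · exact absurd (by rw [← hi e, e', va]) he.1
      · exact absurd (by rw [← hi e, e', vb]) he.2.1
      · exact absurd (by rw [← hi e, e']) he.2.2.2
      · exact absurd (smul_left_cancel v e') he.2.2.1
      · exact e'
    have hew : e = w := by
      rcases hfix hve with e' | e' | e'
      · exact absurd e' he.1
      · exact absurd e' he.2.1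
      · exact e'
    rw [hew] at hiff
    refine ⟨hf, hiff, ?_⟩
    exact stab4_eq_of_fix h hf ⟨hab, haw, (Ne.symm za), hbw, (Ne.symm zb), Ne.symm zw⟩
      ((hiff a).2 (by tauto)) ((hiff b).2 (by tauto)) ((hiff w).2 (by tauto)) ((hiff z).2 (by tauto))
  obtain ⟨-, t2, t3⟩ := block t ht ht1 ta tb tw
  obtain ⟨hfu, u2, u3⟩ := block u hu hu1 ua ub uw
  have hu' : ∀ k ∈ stab4 G a b z (t • z), k • u • z = u • z := by
    rw [t3, ← u3]; exact (u2 _).2 (by tauto)
  have hi := smul_smul_inv (X := X) hu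
  rcases (t2 _).1 hu' with e | e | e | e | e
  · exact absurd e hfu.2.2.1.symm
  · exact absurd e hfu.2.2.2.2.1.symm
  · exact absurd e hfu.2.2.2.2.2.symm
  · exact e.symm
  · exact absurd (by rw [← hi z, e, uw]) zw

/-- The stabiliser of four points is trivial. -/
theorem odd_stab4 {a b c d : X} (hf : Four a b c d) : stab4 G a b c d = ⊥ := by
  obtain ⟨x, s, w, p, C⟩ := exists_config h hn ho hf
  have hw := C.not_moved h hn ho
  have hp := C.p_out h hn ho
  by_cases hsix : ∃ z, Out a b c d z ∧ z ≠ w ∧ ∀ k ∈ stab4 G a b c d, k • z = z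
  · obtain ⟨z₀, hz₀, hz₀w, hfix₀⟩ := hsix
    have hfixfour : ∀ k ∈ stab4 G a b c d, ∀ v : X, s • v = v → k • v = v := by
      intro k hk v hv
      rcases C.fix_s h hn ho hv with rfl | rfl | rfl
      · exact (mem_stab4.1 hk).1
      · exact (mem_stab4.1 hk).2.1
      · exact hw k hk
    obtain ⟨g, hg, ga, gb, gc, gd⟩ := C.carry h hn ho hz₀ hz₀w
    have hsz₀ : ∀ k ∈ stab4 G a b c d, k • s • z₀ = s • z₀ := by
      intro k hk
      have := hfix₀ _ (C.norm_s h hn ho k hk)
      rw [mul_smul, mul_smul] at this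
      rw [← smul_smul_inv C.hs (k • s • z₀), this]
    have heq := stab4_eq_of_fix h hf (C.four_pair h hn ho hz₀ hz₀w)
      (fun k hk => (mem_stab4.1 hk).2.2.1) (fun k hk => (mem_stab4.1 hk).2.2.2) hfix₀ hsz₀
    have hxfix : ∀ k ∈ stab4 G a b c d, ∀ v : X, x • v = v → k • v = v := by
      intro k hk v hv
      have := hfixfour _ (heq ▸ conj_stab4 ga gb gc gd hk) (g • v)
        (by rw [← hg, mul_smul, mul_smul, inv_smul_smul, hv])
      rw [mul_smul, mul_smul, inv_smul_smul] at this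
      exact smul_left_cancel g this
    refine (Subgroup.eq_bot_iff_forall _).2 fun k hk => h.faith k fun z => ?_
    by_cases hz : Out a b c d z ∧ z ≠ w
    · obtain ⟨g, hg, ga, gb, gc, gd⟩ := C.carry h hn ho hz.1 hz.2
      have hfour := C.four_pair h hn ho hz.1 hz.2
      have hall : ∀ l ∈ stab4 G c d z (s • z), ∀ v : X, s • v = v → l • v = v := by
        intro l hl v hv
        have hl' : g⁻¹ * l * g⁻¹⁻¹ ∈ stab4 G a b c d :=
          conj_stab4 (inv_smul_eq_iff.2 ga.symm) (inv_smul_eq_iff.2 gb.symm)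
            (inv_smul_eq_iff.2 gc.symm) (inv_smul_eq_iff.2 gd.symm) hl
        have := hxfix _ hl' (g⁻¹ • v)
          (smul_left_cancel g (by
            rw [smul_inv_smul]
            conv_rhs => rw [← hv, ← hg, mul_smul, mul_smul]))
        rw [inv_inv, mul_smul, mul_smul, smul_inv_smul] at this
        exact smul_left_cancel g⁻¹ this
      have heq' := stab4_eq_of_fix h hfour hf (fun l hl => hall l hl a C.sa)
        (fun l hl => hall l hl b C.sb) (fun l hl => (mem_stab4.1 hl).1)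
        (fun l hl => (mem_stab4.1 hl).2.1)
      exact (mem_stab4.1 (heq'.symm ▸ hk)).2.2.1
    · simp only [Out, not_and_or, not_not] at hz
      obtain ⟨k1, k2, k3, k4⟩ := mem_stab4.1 hk
      rcases hz with (rfl | rfl | rfl | rfl) | rfl
      · exact k1
      · exact k2
      · exact k3
      · exact k4
      · exact hw k hk
  exfalso
  have hbase : ∀ z, (∀ k ∈ stab4 G a b c d, k • z = z) ↔
      z = a ∨ z = b ∨ z = c ∨ z = d ∨ z = w := by
    refine fun z => ⟨fun hz => ?_, ?_⟩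
    · by_contra hne
      simp only [not_or] at hne
      exact hsix ⟨z, ⟨hne.1, hne.2.1, hne.2.2.1, hne.2.2.2.1⟩, hne.2.2.2.2, hz⟩
    · rintro (rfl | rfl | rfl | rfl | rfl) k hk
      · exact (mem_stab4.1 hk).1
      · exact (mem_stab4.1 hk).2.1
      · exact (mem_stab4.1 hk).2.2.1
      · exact (mem_stab4.1 hk).2.2.2
      · exact hw k hk
  have hfive : ∀ {a' b' c' d' : X}, Four a' b' c' d' → ∃ e, Out a' b' c' d' e ∧
      ∀ z, (∀ k ∈ stab4 G a' b' c' d', k • z = z) ↔
        z = a' ∨ z = b' ∨ z = c' ∨ z = d' ∨ z = e := by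
    intro a' b' c' d' hf'
    obtain ⟨g, ga, gb, gc, gd⟩ := h.trans hf hf'
    refine ⟨g • w, ?_, fun z => ?_⟩
    · subst ga gb gc gd
      simpa [Out] using C.wout
    have h1 : (∀ k ∈ stab4 G a' b' c' d', k • z = z) ↔
        ∀ k ∈ stab4 G a b c d, k • g⁻¹ • z = g⁻¹ • z := by
      constructor
      · intro hz k hk
        have := hz _ (conj_stab4 ga gb gc gd hk)
        rw [mul_smul, mul_smul] at this
        exact eq_inv_smul_iff.2 this
      · intro hz k hk
        have := hz _ (conj_stab4 (g := g⁻¹) (inv_smul_eq_iff.2 ga.symm) (inv_smul_eq_iff.2 gb.symm)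
          (inv_smul_eq_iff.2 gc.symm) (inv_smul_eq_iff.2 gd.symm) hk)
        rw [inv_inv, mul_smul, mul_smul, smul_inv_smul] at this
        exact smul_left_cancel g⁻¹ this
    rw [h1, hbase]
    simp only [inv_smul_eq_iff, ga, gb, gc, gd]
  have cen : ∀ {a b c d : X} {t : G}, Four a b c d → t * t = 1 → t ≠ 1 → t • a = a → t • b = b →
      t • w = w → Out a b c d w → ∀ k ∈ stab4 G a b c d, k • w = w → k * t = t * k := by
    intro a b c d t hf' ht ht1 ta tb tw hout k hk hkw
    obtain ⟨k1, k2, -, -⟩ := mem_stab4.1 hk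
    have htt : k * t * k⁻¹ * (k * t * k⁻¹) = 1 := by
      calc _ = k * (t * t) * k⁻¹ := by group
        _ = 1 := by rw [ht]; group
    have hfixk : ∀ v : X, k • v = v → t • v = v → (k * t * k⁻¹) • v = v := fun v e e' => by
      rw [mul_smul, mul_smul, show k⁻¹ • v = v from inv_smul_eq_iff.2 e.symm, e', e]
    exact mul_inv_eq_iff_eq_mul.1 (inv_unique h hn ho hfive hf'.1 hout.1.symm hout.2.1.symm htt
      (fun e => ht1 (conj_eq_one_iff.1 e)) ht ht1
      (hfixk a k1 ta) (hfixk b k2 tb) (hfixk w hkw tw) ta tb tw)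
  obtain ⟨sp1, sp2, sp3, -⟩ := C.sp h hn ho
  refine hsix ⟨p, hp, C.pw, fun k hk => ?_⟩
  obtain ⟨k1, k2, k3, k4⟩ := mem_stab4.1 hk
  have hks := cen hf C.hs (C.s_ne_one h hn ho) C.sa C.sb C.sw C.wout k hk (hw k hk)
  have hzz : x * s * (x * s) = 1 := by
    calc _ = x * (s * x) * s := by simp only [mul_assoc]
      _ = x * x * (s * s) := by rw [← C.comm]; simp only [mul_assoc]
      _ = 1 := by rw [C.hx, C.hs, one_mul]
  obtain ⟨f1, f2, f3, f4, f5, f6⟩ := hf
  have hkxs := cen (a := c) (b := d) (c := a) (d := b) (t := x * s)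
    ⟨f6, f2.symm, f4.symm, f3.symm, f5.symm, f1⟩ hzz
    (ne_one_of_moved (p := a) (by rw [mul_smul, C.sa, C.xa]; exact f1.symm))
    (by rw [mul_smul, C.sc, C.xd]) (by rw [mul_smul, C.sd, C.xc]) (by rw [mul_smul, C.sw, C.xw])
    ⟨C.wout.2.2.1, C.wout.2.2.2, C.wout.1, C.wout.2.1⟩ k (mem_stab4.2 ⟨k3, k4, k1, k2⟩) (hw k hk)
  have hkx : k * x = x * k := by
    calc k * x = k * (x * s) * s := by rw [mul_assoc, mul_assoc, C.hs, mul_one]
      _ = x * s * k * s := by rw [hkxs]
      _ = x * (s * (k * s)) := by simp only [mul_assoc]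
      _ = x * k := by rw [hks, ← mul_assoc s, C.hs, one_mul]
  have perm : ∀ v, x • v = v → k • v = w ∨ k • v = p ∨ k • v = s • p := fun v hv =>
    C.fix_x h hn ho (by rw [← mul_smul, ← hkx, mul_smul, hv])
  exact fix_other (stab4_odd h ⟨f1, f2, f3, f4, f5, f6⟩) hk (hw k hk) (perm p C.xp) (perm _ sp1)
    C.pw sp3

end Odd

end Cfsg.Agent.Lib.FourTrans
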